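import Cfsg.Agent.S0144
import Cfsg.Agent.Lib.Helper51.TI3.Main

/-!
# S3117 package GA (helper27): the abelian case `LemAb`.
-/

set_option autoImplicit false

universe u

namespace Cfsg.Agent.Lib.Helper27.TI3

open Cfsg.Agent.Lib.Helper51.TI3

/-- The subgroup of squares of a commutative group. -/
def sqSub {X : Type u} [Group X] (hab : ∀ a b : X, a * b = b * a) : Subgroup X where
  carrier := {y | ∃ x : X, x ^ 2 = y}
  mul_mem' := by
    rintro a b ⟨x, rfl⟩ ⟨y, rfl⟩
    refine ⟨x * y, ?_⟩
    rw [pow_two, pow_two, pow_two]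
    calc x * y * (x * y) = x * (y * x) * y := by group
      _ = x * (x * y) * y := by rw [hab y x]
      _ = x * x * (y * y) := by group
  one_mem' := ⟨1, by simp⟩
  inv_mem' := by
    rintro a ⟨x, rfl⟩
    exact ⟨x⁻¹, by simp⟩

/-- The subgroup of solutions of `x ^ 2 = 1` of a commutative group. -/
def omSub {X : Type u} [Group X] (hab : ∀ a b : X, a * b = b * a) : Subgroup X where
  carrier := {y | y ^ 2 = 1}
  mul_mem' := by
    intro a b ha hb
    have ha' : a ^ 2 = 1 := ha
    have hb' : b ^ 2 = 1 := hb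
    change (a * b) ^ 2 = 1
    rw [pow_two]
    calc a * b * (a * b) = a * (b * a) * b := by simp only [mul_assoc]
      _ = a * (a * b) * b := by rw [hab b a]
      _ = a ^ 2 * b ^ 2 := by rw [pow_two, pow_two]; simp only [mul_assoc]
      _ = 1 := by rw [ha', hb', one_mul]
  one_mem' := by simp
  inv_mem' := by
    intro a ha
    have ha' : a ^ 2 = 1 := ha
    change a⁻¹ ^ 2 = 1
    rw [inv_pow, ha', inv_one]

theorem dvd24_two_three (n : ℕ) (hn : n ∣ 24) : ∃ a b : ℕ, n = 2 ^ a * 3 ^ b := by
  have hle := Nat.le_of_dvd (by norm_num) hn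
  interval_cases n
  all_goals (first | (exfalso; omega) | skip)
  · exact ⟨0, 0, by norm_num⟩
  · exact ⟨1, 0, by norm_num⟩
  · exact ⟨0, 1, by norm_num⟩
  · exact ⟨2, 0, by norm_num⟩
  · exact ⟨1, 1, by norm_num⟩
  · exact ⟨3, 0, by norm_num⟩
  · exact ⟨2, 1, by norm_num⟩
  · exact ⟨3, 1, by norm_num⟩

/-- The automorphism group of a group with at most four elements is solvable. -/
theorem mulAut_solvable_of_card_le_four {Ω : Type u} [Group Ω] [Finite Ω]
    (h : Nat.card Ω ≤ 4) : Group.IsSolvable (MulAut Ω) := by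
  classical
  have : Fintype Ω := Fintype.ofFinite Ω
  have hinj : Function.Injective (MulAut.toPerm Ω) := by
    intro a b hab
    ext x
    exact congrArg (fun σ : Equiv.Perm Ω => σ x) hab
  have hdvd : Nat.card (MulAut Ω) ∣ Nat.card (Equiv.Perm Ω) :=
    Subgroup.card_dvd_of_injective _ hinj
  have hperm : Nat.card (Equiv.Perm Ω) = (Nat.card Ω).factorial := by
    rw [Nat.card_eq_fintype_card, Fintype.card_perm, Nat.card_eq_fintype_card]
  have h24 : Nat.card (MulAut Ω) ∣ 24 := by
    rw [hperm] at hdvd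
    have h1 : (Nat.card Ω).factorial ∣ (4).factorial := Nat.factorial_dvd_factorial h
    exact hdvd.trans h1
  obtain ⟨a, b, hab⟩ := dvd24_two_three _ h24
  exact Cfsg.Agent.S0144.result 2 3 a b Nat.prime_two Nat.prime_three hab

theorem lemAb_aux : ∀ (n : ℕ) {X : Type u} [Group X] [Finite X], Nat.card X = n →
    IsPGroup 2 X → (∀ a b : X, a * b = b * a) →
    Nat.card {x : X // x ^ 2 = 1} ≤ 4 → Group.IsSolvable (MulAut X) := by
  intro n
  induction n using Nat.strong_induction_on with
  | _ n ih =>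
  intro X _ _ hn hX hab hcount
  have : Fact (Nat.Prime 2) := ⟨Nat.prime_two⟩
  by_cases htriv : Subsingleton X
  · have : Subsingleton (MulAut X) := ⟨fun a b => by ext x; exact Subsingleton.elim _ _⟩
    infer_instance
  · rw [not_subsingleton_iff_nontrivial] at htriv
    have hYinv : ∀ (α : MulAut X) (h : X), h ∈ sqSub hab → α h ∈ sqSub hab := by
      rintro α h ⟨x, rfl⟩
      exact ⟨α x, by rw [map_pow]⟩
    have hΩinv : ∀ (α : MulAut X) (h : X), h ∈ omSub hab → α h ∈ omSub hab := by
      intro α h hh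
      change (α h) ^ 2 = 1
      rw [← map_pow, (hh : h ^ 2 = 1), map_one]
    have hYlt : Nat.card ↥(sqSub hab) < n := by
      rw [← hn]
      refine lt_of_le_of_ne (Subgroup.card_le_card_group _) (fun h => ?_)
      have hYtop : sqSub hab = ⊤ := Subgroup.eq_top_of_card_eq _ h
      have hsurj : Function.Surjective (fun x : X => x ^ 2) := by
        intro y
        have hy : y ∈ sqSub hab := hYtop ▸ Subgroup.mem_top y
        obtain ⟨x, hx⟩ := hy
        exact ⟨x, hx⟩
      have hinj := Finite.injective_iff_surjective.mpr hsurj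
      obtain ⟨k, hk⟩ := hX.exists_card_eq
      have h2 : 2 ∣ Nat.card X := by
        rcases k with _ | k
        · exfalso
          have h1 : 1 < Nat.card X := Finite.one_lt_card
          rw [hk] at h1
          simp at h1
        · rw [hk, pow_succ]; exact dvd_mul_left 2 _
      obtain ⟨x, hx⟩ := exists_prime_orderOf_dvd_card' 2 h2
      have hx2 : x ^ 2 = 1 := by rw [← hx]; exact pow_orderOf_eq_one x
      have hx1 : x ≠ 1 := by
        intro h1
        rw [h1, orderOf_one] at hx
        omega
      exact hx1 (hinj (by simp [hx2]))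
    have hYsolv : Group.IsSolvable (MulAut ↥(sqSub hab)) :=
      ih _ hYlt rfl (hX.to_subgroup _) (fun a b => Subtype.ext (hab a b))
        ((card_sq_subgroup_le (sqSub hab)).trans hcount)
    have hΩcard : Nat.card ↥(omSub hab) ≤ 4 := hcount
    have hΩsolv : Group.IsSolvable (MulAut ↥(omSub hab)) :=
      mulAut_solvable_of_card_le_four hΩcard
    have hprod : Group.IsSolvable (MulAut ↥(sqSub hab) × MulAut ↥(omSub hab)) := inferInstance
    apply solvable_of_ker ((resAut (sqSub hab) hYinv).prod (resAut (omSub hab) hΩinv)) hprod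
    apply solvable_of_two_power
    intro α hα
    rw [MonoidHom.mem_ker] at hα
    have hα1 : resAut (sqSub hab) hYinv α = 1 := congrArg Prod.fst hα
    have hα2 : resAut (omSub hab) hΩinv α = 1 := congrArg Prod.snd hα
    have hfixY : ∀ h ∈ sqSub hab, α h = h := by
      intro h hh
      have h1 := congrArg (fun β : MulAut ↥(sqSub hab) => ((β ⟨h, hh⟩ : ↥(sqSub hab)) : X)) hα1
      simpa [resAut_apply] using h1
    have hfixΩ : ∀ h ∈ omSub hab, α h = h := by
      intro h hh
      have h1 := congrArg (fun β : MulAut ↥(omSub hab) => ((β ⟨h, hh⟩ : ↥(omSub hab)) : X)) hα2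
      simpa [resAut_apply] using h1
    have hmove : ∀ x, x⁻¹ * α x ∈ omSub hab := by
      intro x
      change (x⁻¹ * α x) ^ 2 = 1
      have h1 : α (x ^ 2) = x ^ 2 := hfixY _ ⟨x, rfl⟩
      rw [map_pow] at h1
      rw [pow_two]
      calc x⁻¹ * α x * (x⁻¹ * α x) = x⁻¹ * (α x * x⁻¹) * α x := by simp only [mul_assoc]
        _ = x⁻¹ * (x⁻¹ * α x) * α x := by rw [hab (α x) x⁻¹]
        _ = (x * x)⁻¹ * (α x * α x) := by rw [mul_inv_rev]; simp only [mul_assoc]
        _ = 1 := by rw [← pow_two, ← pow_two, h1]; exact inv_mul_cancel _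
    have hpow := aut_pow_card_eq_one (omSub hab) α hfixΩ hmove
    obtain ⟨k, hk⟩ := (hX.to_subgroup (omSub hab)).exists_card_eq
    exact ⟨k, by rw [← hk]; exact hpow⟩

/-- Package GA of S3117: the abelian case. -/
theorem lemAb : LemAb.{u} := by
  intro X _ _ hX hab hcount
  exact lemAb_aux _ rfl hX hab hcount

end Cfsg.Agent.Lib.Helper27.TI3
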